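import Mathlib
import Cfsg.Agent.S0014
import Cfsg.Agent.S0029

/-!
# Automorphisms of `p`-groups of order prime to `p` and the rank

* `exists_prime_of_mulAut`: an automorphism `α ≠ 1` of a group of order `p ^ n`, of order prime to `p`,
  has a prime divisor `r` of its order dividing `p ^ j - 1` for some `1 ≤ j ≤ n`.
* `exists_prime_of_normalizer`: if `g` of order prime to `p` normalizes but does not centralize the
  `p`-subgroup `D` which is generated by `d` elements, then a prime divisor `r` of the order of `g`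
  divides `p ^ j - 1` for some `1 ≤ j ≤ d`.
-/

set_option autoImplicit false

namespace Cfsg.Agent.H490.AutRank

/-- An automorphism `α ≠ 1`, of order prime to `p`, of a group `V` of order `p ^ n`: some prime
divisor `r` of its order divides `p ^ j - 1` for some `1 ≤ j ≤ n`. -/
theorem exists_prime_of_mulAut {V : Type*} [Group V] [Finite V] {p n : ℕ} [hp : Fact p.Prime]
    (hV : Nat.card V = p ^ n) (α : MulAut V) (hα : α ≠ 1) (hcop : (orderOf α).Coprime p) :
    ∃ r : ℕ, r.Prime ∧ r ∣ orderOf α ∧ ∃ j, 1 ≤ j ∧ j ≤ n ∧ r ∣ p ^ j - 1 := by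
  have hfin : 0 < orderOf α := orderOf_pos α
  have h1 : orderOf α ≠ 1 := by rwa [Ne, orderOf_eq_one_iff]
  obtain ⟨r, hr, hrd⟩ := Nat.exists_prime_and_dvd h1
  refine ⟨r, hr, hrd, ?_⟩
  have hrp : r ≠ p := by
    rintro rfl
    have := Nat.Coprime.eq_one_of_dvd hcop.symm hrd
    exact hr.one_lt.ne' this
  haveI : Fact r.Prime := ⟨hr⟩
  set β : MulAut V := α ^ (orderOf α / r) with hβ
  have hβo : orderOf β = r := by
    rw [hβ, orderOf_pow_of_dvd (Nat.div_pos (Nat.le_of_dvd hfin hrd) hr.pos).ne'
      (Nat.div_dvd_of_dvd hrd), Nat.div_div_self hrd hfin.ne']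
  have hP : IsPGroup r (Subgroup.zpowers β) := by
    refine IsPGroup.of_card (n := 1) ?_
    rw [Nat.card_zpowers, hβo, pow_one]
  -- the fixed points
  let C : Subgroup V :=
    { carrier := {x | β x = x}
      one_mem' := map_one β
      mul_mem' := by
        intro a b ha hb
        change β (a * b) = a * b
        rw [map_mul, show β a = a from ha, show β b = b from hb]
      inv_mem' := by
        intro a ha
        change β a⁻¹ = a⁻¹
        rw [map_inv, show β a = a from ha] }
  have hCmem : ∀ x : V, x ∈ C ↔ β x = x := fun x => Iff.rfl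
  have hfix : Nat.card (MulAction.fixedPoints (Subgroup.zpowers β) V) = Nat.card C := by
    congr 1
    apply congrArg
    ext x
    rw [MulAction.mem_fixedPoints]
    constructor
    · intro h
      exact h ⟨β, Subgroup.mem_zpowers β⟩
    · rintro h ⟨_, k, rfl⟩
      change (β ^ k) x = x
      have hx : β ∈ MulAction.stabilizer (MulAut V) x := h
      exact Subgroup.zpow_mem _ hx k
  have hmod := hP.card_modEq_card_fixedPoints V
  rw [hfix] at hmod
  -- sizes
  obtain ⟨c, hcn, hc⟩ := (Nat.dvd_prime_pow hp.out).mp (hV ▸ Subgroup.card_subgroup_dvd_card C)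
  have hlt : c < n := by
    rcases lt_or_eq_of_le hcn with h | h
    · exact h
    · exfalso
      have h2 : C = ⊤ := Subgroup.eq_top_of_card_eq C (by rw [hc, hV, h])
      have h3 : β = 1 := by
        ext x
        have : x ∈ C := by rw [h2]; trivial
        exact this
      rw [h3, orderOf_one] at hβo
      exact hr.one_lt.ne hβo
  refine ⟨n - c, by omega, by omega, ?_⟩
  rw [hV, hc] at hmod
  have h4 : r ∣ p ^ n - p ^ c := (Nat.modEq_iff_dvd' (Nat.pow_le_pow_right hp.out.pos hcn)).mp hmod.symm
  have h5 : p ^ n - p ^ c = p ^ c * (p ^ (n - c) - 1) := by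
    rw [Nat.mul_sub, mul_one, ← pow_add]
    congr 2
    omega
  rw [h5] at h4
  refine (Nat.Coprime.dvd_mul_left ?_).mp h4
  exact Nat.Coprime.pow_right c ((Nat.coprime_primes hr hp.out).mpr hrp)

/-- If `g`, of order prime to `p`, normalizes but does not centralize the `p`-subgroup `D`, and `D`
is generated by at most `d` elements, then some prime divisor `r` of the order of `g` divides
`p ^ j - 1` for some `1 ≤ j ≤ d`. -/
theorem exists_prime_of_normalizer {G : Type*} [Group G] [Finite G] {p d : ℕ} [hp : Fact p.Prime]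
    (D : Subgroup G) (hD : IsPGroup p D) (T : Finset D) (hT : Subgroup.closure (T : Set D) = ⊤)
    (hTd : T.card ≤ d) (g : G) (hg : g ∈ Subgroup.normalizer (D : Set G))
    (hcop : (orderOf g).Coprime p) (hgC : g ∉ Subgroup.centralizer (D : Set G)) :
    ∃ r : ℕ, r.Prime ∧ r ∣ orderOf g ∧ ∃ j, 1 ≤ j ∧ j ≤ d ∧ r ∣ p ^ j - 1 := by
  haveI hchar : (frattini D).Characteristic := inferInstance
  let φ : MulAut D := D.normalizerMonoidHom ⟨g, hg⟩
  have hφ : ∀ x : D, ((φ x : D) : G) = g * x * g⁻¹ := fun x => rfl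
  have hφF : (frattini D).map φ.toMonoidHom = frattini D :=
    Subgroup.characteristic_iff_map_eq.mp hchar φ
  let f : MulAut D →* MulAut (D ⧸ frattini D) :=
    { toFun := fun ψ => QuotientGroup.congr (frattini D) (frattini D) ψ
        (Subgroup.characteristic_iff_map_eq.mp hchar ψ)
      map_one' := by
        ext x
        obtain ⟨y, rfl⟩ := QuotientGroup.mk_surjective x
        rfl
      map_mul' := by
        intro a b
        ext x
        obtain ⟨y, rfl⟩ := QuotientGroup.mk_surjective x
        rfl }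
  have hf : ∀ (ψ : MulAut D) (x : D), f ψ (QuotientGroup.mk x) = QuotientGroup.mk (ψ x) :=
    fun ψ x => rfl
  -- order of the quotient
  obtain ⟨n, hn⟩ := IsPGroup.iff_card.mp (hD.to_quotient (frattini D))
  have hidx : (frattini D).index = p ^ n := by rw [Subgroup.index_eq_card, hn]
  have hnd : n ≤ d := ((Cfsg.Agent.S0014.result p n hD hidx).2 T hT).trans hTd
  -- the order of the automorphism
  have hdvd : orderOf (f φ) ∣ orderOf g := by
    refine (orderOf_map_dvd f φ).trans ?_
    refine (orderOf_map_dvd (D.normalizerMonoidHom) ⟨g, hg⟩).trans ?_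
    rw [Subgroup.orderOf_mk]
  have hne : f φ ≠ 1 := by
    intro h1
    apply hgC
    have h2 : Subgroup.zpowers g ≤ Subgroup.centralizer (D : Set G) := by
      have hzn : Subgroup.zpowers g ≤ Subgroup.normalizer (D : Set G) := by
        rwa [Subgroup.zpowers_le]
      refine Cfsg.Agent.S0029.result (Subgroup.zpowers g) D hzn ?_ ?_
      · rw [Nat.card_zpowers]
        obtain ⟨m, hm⟩ := IsPGroup.iff_card.mp (hD.to_subgroup (frattini D))
        rw [hm]
        exact Nat.Coprime.pow_right m hcop
      · rintro a ⟨k, rfl⟩ x hx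
        have h3 : f (φ ^ k) = 1 := by rw [map_zpow, h1, one_zpow]
        have h4 : (QuotientGroup.mk ((φ ^ k) ⟨x, hx⟩) : D ⧸ frattini D) = QuotientGroup.mk ⟨x, hx⟩ := by
          rw [← hf, h3]; rfl
        have h5 : ((φ ^ k) ⟨x, hx⟩ : D) * (⟨x, hx⟩ : D)⁻¹ ∈ frattini D := by
          have h6 := QuotientGroup.eq.mp h4
          have h7 := (frattini D).inv_mem h6
          rw [mul_inv_rev, inv_inv] at h7
          have hnorm : (frattini D).Normal := inferInstance
          exact (hnorm.mem_comm_iff).mp h7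
        refine ⟨_, h5, ?_⟩
        change (((φ ^ k) ⟨x, hx⟩ : D) : G) * x⁻¹ = g ^ k * x * (g ^ k)⁻¹ * x⁻¹
        congr 1
        have h8 : φ ^ k = D.normalizerMonoidHom (⟨g, hg⟩ ^ k) := by rw [map_zpow]
        rw [h8]
        change ((⟨g, hg⟩ ^ k : Subgroup.normalizer (D : Set G)) : G) * x *
          ((⟨g, hg⟩ ^ k : Subgroup.normalizer (D : Set G)) : G)⁻¹ = _
        rw [Subgroup.coe_zpow]
    exact h2 (Subgroup.mem_zpowers g)
  obtain ⟨r, hr, hrd, j, hj1, hjn, hj⟩ := exists_prime_of_mulAut hn (f φ) hne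
    (Nat.Coprime.coprime_dvd_left hdvd hcop)
  exact ⟨r, hr, hrd.trans hdvd, j, hj1, hjn.trans hnd, hj⟩

end Cfsg.Agent.H490.AutRank
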